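import Cfsg.Agent.H743.GG.Count
import Cfsg.Agent.H655.OC.Abs

/-!
# Harish-Chandra series and the mean over the regular unipotent elements (S4829, own characteristic; helper655)

* `exists_mG`  : `mJ R D J α ≠ 0` : `HC R J α` has a constituent `χ` with `mG R D χ ≠ 0`;
* `unique_mG`  : for cuspidal `α` there is exactly one.
-/

set_option autoImplicit false

open scoped ComplexConjugate
open Cfsg

namespace Cfsg.Agent.H655.OC

open Cfsg.Agent.Characters
open Cfsg.Agent.H53.HC Cfsg.Agent.H641.Gow Cfsg.Agent.H148.GG Cfsg.Agent.H40.OC Cfsg.Agent.H743.GG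

open CoxeterSystem Cfsg.Agent.ChevalleyStructure.CoxeterGeom Cfsg.Agent.Tits.Roots Cfsg.Agent.Tits.Core
  Cfsg.Agent.Tits.Exchange Cfsg.Agent.Nodes.Reps Cfsg.Agent.Nodes.BNOf Cfsg.Agent.Nodes.StabComb
  Cfsg.Agent.Nodes.Bruhat Cfsg.Agent.Nodes.OppDec Cfsg.Agent.Nodes.LeviDec

variable {I W Y : Type*} [Fintype I] [DecidableEq I] [Group W] [Group Y] {M : CoxeterMatrix I}
  {cs : CoxeterSystem M W} {A : I → I → ℤ} {h : IsCartan M A} {p : ℕ} {T : Subgroup Y} {n : I → Y}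
  {X : (I → ℤ) → Subgroup Y}
  (R : RGD cs h p T n X) {F : I → Type*} [∀ i, Field (F i)] (D : Adj T X F)

theorem isCharacter_HC [Finite W] [Fintype Y] {J : Set I} {α : ↥(LJ cs h T X J) → ℂ} (hα : IsIrrCharacter _ α) :
    IsCharacter Y (HC R J α) :=
  Cfsg.Agent.S0148.result _ _ (Core.isCharacter_comp _ (Core.isIrr_isCharacter hα))

include D in
/-- existence -/
theorem exists_mG [Finite W] [Fintype Y] [∀ i, Finite (F i)] (hG : GG cs h T X = ⊤) {J : Set I}
    {α : ↥(LJ cs h T X J) → ℂ} (hα : IsIrrCharacter _ α) (h0 : mJ R D J α ≠ 0) :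
    ∃ χ : IrrCharacter Y, classInner (HC R J α) (χ : Y → ℂ) ≠ 0 ∧ mG R D (χ : Y → ℂ) ≠ 0 := by
  classical
  have : Finite (IrrCharacter Y) := Core.finite_irr
  let _ : Fintype (IrrCharacter Y) := Fintype.ofFinite _
  obtain ⟨lam, hl⟩ := exists_lam R D
  by_contra hcon
  push Not at hcon
  apply h0
  rw [← mG_HC R D hG J (Core.isIrr_isClassFunction hα),
    ← classInner_Xi R D hl (Core.isCharacter_isClassFunction (isCharacter_HC R hα)),
    Core.classInner_eq_sum (Core.isCharacter_isClassFunction (isCharacter_HC R hα)) (isClass_Xi lam)]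
  refine Finset.sum_eq_zero fun ξ _ => ?_
  by_cases h6 : classInner (HC R J α) (ξ : Y → ℂ) = 0
  · rw [h6, zero_mul]
  · have h7 := hcon ξ h6
    rw [← classInner_Xi R D hl (Core.isIrr_isClassFunction ξ.2), ← Core.classInner_conj_symm] at h7
    rw [show classInner (Xi lam) (ξ : Y → ℂ) = 0 by simpa using h7, map_zero, mul_zero]

include D in
/-- **uniqueness** -/
theorem unique_mG [Finite W] [Fintype Y] [∀ i, Finite (F i)] (hG : GG cs h T X = ⊤)
    (hT : ∀ t : T, (∀ i, D.a i t = 1) → t = 1) (hm : MultOne cs h T X) {J : Set I} {α : ↥(LJ cs h T X J) → ℂ}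
    (hα : IsIrrCharacter _ α) (hc : CuspL cs h T X J α) (h0 : mJ R D J α ≠ 0) {χ χ' : IrrCharacter Y}
    (c1 : classInner (HC R J α) (χ : Y → ℂ) ≠ 0) (c2 : mG R D (χ : Y → ℂ) ≠ 0)
    (d1 : classInner (HC R J α) (χ' : Y → ℂ) ≠ 0) (d2 : mG R D (χ' : Y → ℂ) ≠ 0) : χ = χ' := by
  classical
  have : Fintype ↥(UJ cs h X Set.univ) := Fintype.ofFinite _
  obtain ⟨lam, hl⟩ := exists_lam R D
  obtain ⟨ψ, hψ⟩ := exists_nd R D
  have hψc : IsCharacter ↥(UJ cs h X Set.univ) (fun u => (ψ u : ℂ)) := Linear.isCharacter_hom ψ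
  have hΓ : IsCharacter Y (indFun (UJ cs h X Set.univ) fun u : ↥(UJ cs h X Set.univ) => (ψ u : ℂ)) :=
    Brauer.isCharacter_indFun _ hψc
  have hfrob : ∀ ξ : Y → ℂ, IsClassFunction Y ξ →
      classInner ξ (indFun (UJ cs h X Set.univ) fun u : ↥(UJ cs h X Set.univ) => (ψ u : ℂ)) =
        classInner (ξ ∘ (UJ cs h X Set.univ).subtype) (fun u : ↥(UJ cs h X Set.univ) => (ψ u : ℂ)) := by
    intro ξ hξ
    rw [← Core.classInner_conj_symm, Cfsg.Agent.OddOrderCharacters.Clifford.classInner_indFun _ _ _ hξ,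
      Core.classInner_conj_symm]
    rfl
  have hint : ∀ χ : Y → ℂ, IsIrrCharacter Y χ → ∃ k : ℤ, mG R D χ = k := fun χ hχ =>
    mG_isInt R D (Core.isIrr_isCharacter hχ)
  have hXi : ∀ χ : Y → ℂ, IsIrrCharacter Y χ → classInner (Xi lam) χ = mG R D χ := by
    intro χ hχ
    obtain ⟨c, hc⟩ := hint χ hχ
    rw [← Core.classInner_conj_symm, classInner_Xi R D hl (Core.isIrr_isClassFunction hχ), hc, map_intCast]
  obtain ⟨m, hM⟩ := Core.classInner_isNat hΓ hΓ
  have hle : (∏ i, Nat.card (F i)) ≤ m := by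
    have h1 := gg2 R D hψ
    rw [hM, Complex.natCast_re] at h1
    exact_mod_cast h1
  have hN : classInner (Xi lam) (Xi lam) = ((∏ i, Nat.card (F i) : ℕ) : ℂ) := by
    rw [classInner_Xi_Xi R D hG hT hl]
    push_cast
    rfl
  have hHC : ∀ l : CP cs h T X, IsCharacter Y (HC R l.J l.α) := fun l => isCharacter_HC R l.irr
  have hf3 : ∀ l : CP cs h T X, ∃ e : ℂ, (e = 0 ∨ e = 1) ∧
      classInner (HC R l.J l.α) (indFun (UJ cs h X Set.univ) fun u : ↥(UJ cs h X Set.univ) => (ψ u : ℂ)) = e ∧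
      (classInner (HC R l.J l.α) (Xi lam) = e ∨ classInner (HC R l.J l.α) (Xi lam) = -e) := by
    intro l
    have : Fintype ↥(LJ cs h T X l.J) := Fintype.ofFinite _
    have : Fintype ↥(UJ cs h X l.J) := Fintype.ofFinite _
    have : Fintype l.J := Fintype.ofFinite _
    have h1 := hm l.J _ (hψ.res (J := l.J)) l.α l.irr
    refine ⟨_, h1, ?_, ?_⟩
    · rw [hfrob _ (Core.isCharacter_isClassFunction (hHC l))]
      exact f3 R hG D (Core.isIrr_isClassFunction l.irr) hψ hψ.res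
    · rw [classInner_Xi R D hl (Core.isCharacter_isClassFunction (hHC l)), mG_HC R D hG l.J
        (Core.isIrr_isClassFunction l.irr), mJ_cusp R D (hψ.res (J := l.J)) (Core.isIrr_isCharacter l.irr) l.cusp]
      rcases neg_one_pow_eq_or ℂ (Fintype.card l.J) with h2 | h2
      · left
        rw [h2, one_mul]
      · right
        rw [h2, neg_one_mul]
  have h3' : ∀ l : CP cs h T X, classInner (HC R l.J l.α)
      (indFun (UJ cs h X Set.univ) fun u : ↥(UJ cs h X Set.univ) => (ψ u : ℂ)) = 0 ∨ classInner (HC R l.J l.α)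
      (indFun (UJ cs h X Set.univ) fun u : ↥(UJ cs h X Set.univ) => (ψ u : ℂ)) = 1 := by
    intro l
    obtain ⟨e, he, h1, -⟩ := hf3 l
    rw [h1]
    exact he
  have h4' : ∀ l : CP cs h T X, classInner (HC R l.J l.α) (Xi lam) = classInner (HC R l.J l.α)
      (indFun (UJ cs h X Set.univ) fun u : ↥(UJ cs h X Set.univ) => (ψ u : ℂ)) ∨
      classInner (HC R l.J l.α) (Xi lam) = -classInner (HC R l.J l.α)
      (indFun (UJ cs h X Set.univ) fun u : ↥(UJ cs h X Set.univ) => (ψ u : ℂ)) := by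
    intro l
    obtain ⟨e, -, h1, h2⟩ := hf3 l
    rw [h1]
    exact h2
  refine unique_abs (l₀ := (⟨J, α, hα, hc⟩ : CP cs h T X)) hΓ (fun χ hχ => ?_) (isClass_Xi lam) (fun χ hχ => ?_) hN hM hle
    (fun l : CP cs h T X => HC R l.J l.α) hHC (fun χ hχ => ?_)
    (fun l l' hne => HC_eq_of_inner R hG l.irr l'.irr l.cusp l'.cusp hne) h3' h4' ?_ c1 (by rwa [hXi _ χ.2]) d1
    (by rwa [hXi _ χ'.2])
  · have h1 := hm.univ hG hψ hχ
    rw [← hfrob _ (Core.isIrr_isClassFunction hχ)] at h1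
    rw [← Core.classInner_conj_symm]
    rcases h1 with h1 | h1 <;> rw [h1]
    · left; simp
    · right; simp
  · obtain ⟨k, hk⟩ := hint χ hχ
    exact ⟨k, by rw [hXi χ hχ, hk]⟩
  · obtain ⟨J, α, h1, h2, h3⟩ := H45.GG.exists_series R hχ
    exact ⟨⟨J, α, h1, h2⟩, h3⟩
  · refine (h3' _).resolve_left fun h5 => h0 ?_
    have h6 := h4' (⟨J, α, hα, hc⟩ : CP cs h T X)
    rw [h5, neg_zero, or_self, classInner_Xi R D hl (Core.isCharacter_isClassFunction (hHC _)), mG_HC R D hG J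
        (Core.isIrr_isClassFunction hα)] at h6
    exact h6

end Cfsg.Agent.H655.OC
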